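import Cfsg.Agent.TitsMult.Parts
import Cfsg.Agent.SchurPrime.Part
import Cfsg.Agent.SchurSylow.Bound
import Cfsg.Agent.S3979

set_option autoImplicit false

/-!
The Tits group has trivial Schur multiplier.
-/

namespace CfsgLib.TitsMult

open Cfsg Cfsg.Lie CfsgLib.Schur CfsgLib.SchurSylow

universe v

theorem small_part {H : Type*} [Group H] [Finite H] (hH : Nat.card H = 17971200) {Γ : Type v} [Group Γ] [Finite Γ]
    {σ : Γ →* H} (hσ : Cfsg.IsStemExtension σ) {p : ℕ} [hp : Fact p.Prime] (h2 : p ≠ 2) (h3 : p ≠ 3)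
    (h5 : p ≠ 5) {k : ℕ} (hk : p ^ k ∣ Nat.card σ.ker) : p ^ k ∣ 1 := by
  obtain ⟨Q⟩ : Nonempty (Sylow p H) := inferInstance
  obtain ⟨j, hj⟩ := IsPGroup.iff_card.1 Q.isPGroup'
  have hd : p ^ j ∣ 17971200 := hH ▸ hj ▸ Subgroup.card_subgroup_dvd_card _
  have hcop : Nat.Coprime (p ^ j) (2 ^ 11 * 3 ^ 3 * 5 ^ 2) := by
    refine Nat.Coprime.pow_left j (Nat.Coprime.mul_right (Nat.Coprime.mul_right ?_ ?_) ?_)
    · exact ((Nat.coprime_primes hp.out Nat.prime_two).2 h2).pow_right 11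
    · exact ((Nat.coprime_primes hp.out Nat.prime_three).2 h3).pow_right 3
    · exact ((Nat.coprime_primes hp.out Nat.prime_five).2 h5).pow_right 2
  have h13 : p ^ j ∣ 13 :=
    hcop.dvd_of_dvd_mul_left (show p ^ j ∣ 2 ^ 11 * 3 ^ 3 * 5 ^ 2 * 13 by norm_num; exact hd)
  have hcyc : IsCyclic (Q : Subgroup H) := by
    rcases (Nat.dvd_prime (by norm_num)).1 h13 with h | h
    · have : Subsingleton (Q : Subgroup H) := (Nat.card_eq_one_iff_unique.1 (hj.trans h)).1
      infer_instance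
    · haveI := Fact.mk (show Nat.Prime 13 by norm_num)
      exact isCyclic_of_prime_card (hj.trans h)
  haveI := hcyc
  have h := pow_dvd_card hσ Q (MulEquiv.refl _) Cfsg.Agent.S3979.result hk
  rwa [Nat.card_congr Multiplicative.toAdd, Nat.card_zmod] at h

theorem card_ker_dvd {Γ : Type v} [Group Γ] [Finite Γ] {σ : Γ →* TitsGroup} (hσ : Cfsg.IsStemExtension σ) :
    Nat.card σ.ker ∣ 1 := by
  haveI := finite_T
  refine (Nat.dvd_iff_prime_pow_dvd_dvd 1 _).2 fun p k hp hk => ?_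
  haveI := Fact.mk hp
  obtain ⟨Δ, _, _, τ, hτ, hq, hd⟩ := SchurPrime.exists_prime_part hσ p hk
  rcases eq_or_ne p 2 with rfl | h2
  · rwa [part2 hτ hq, Subgroup.card_bot] at hd
  rcases eq_or_ne p 3 with rfl | h3
  · rwa [part3 hτ hq, Subgroup.card_bot] at hd
  rcases eq_or_ne p 5 with rfl | h5
  · rwa [part5 hτ hq, Subgroup.card_bot] at hd
  exact small_part card_T hσ h2 h3 h5 hk

theorem multiplier : Cfsg.HasCyclicSchurMultiplier TitsGroup 1 := by
  haveI := finite_T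
  exact hasTrivial_of fun Γ _ _ σ hσ => Subgroup.card_eq_one.1 (Nat.dvd_one.1 (card_ker_dvd hσ))

end CfsgLib.TitsMult
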