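import Mathlib.Data.List.Basic
import Mathlib.Data.Nat.Bitwise

set_option autoImplicit false

/-!
Arithmetic of 52 by 52 matrices over two elements, a row being 52 bits of a numeral.
-/

namespace CfsgLib.TitsMult

/-- Whether a bit is set. -/
def bitAt (n k : ℕ) : Bool := Nat.beq ((n >>> k) &&& 1) 1

/-- A row. -/
def rowN (n i : ℕ) : ℕ := (n >>> (52 * i)) &&& 4503599627370495

/-- The sum of the rows selected by the first bits. -/
def xorRows (a h : ℕ) : ℕ → ℕ
  | 0 => 0
  | n + 1 => bif bitAt a n then xorRows a h n ^^^ rowN h n else xorRows a h n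

/-- A row times a matrix. -/
def rowX (a h : ℕ) : ℕ := xorRows a h 52

/-- Rows put together. -/
def asm (f : ℕ → ℕ) : ℕ → ℕ
  | 0 => 0
  | n + 1 => asm f n ||| (f n <<< (52 * n))

/-- The product. -/
def mulC (g h : ℕ) : ℕ := asm (fun i => rowX (rowN g i) h) 52

/-- The identity. -/
def oneC : ℕ := asm (fun i => 2 ^ (i % 52)) 52

/-- A product. -/
def prodC (l : List ℕ) : ℕ := l.foldr mulC oneC

/-- The code is that of a matrix. -/
def wf (n : ℕ) : Bool := Nat.blt n (2 ^ 2704)

end CfsgLib.TitsMult
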