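import Cfsg.Agent.TitsMult.RootCheck
import Cfsg.Agent.Chev.Ree4Invol.TitsSimple

set_option autoImplicit false
set_option maxRecDepth 100000

/-!
The packed matrices in the Tits group.
-/

namespace CfsgLib.TitsMult

open Cfsg.Lie Matrix

/-- The twisted group. -/
abbrev G2T : Subgroup (GL chevF4.Idx (ZMod 2)) := twistedF4 (ZMod 2) 1

theorem index_two : (commutator G2T).index = 2 := CfsgLib.Chev.Ree4Invol.index_two

theorem card_T : Nat.card TitsGroup = 17971200 := by
  have h : Nat.card TitsGroup = 2 ^ 11 * 3 ^ 3 * 5 ^ 2 * 13 := CfsgLib.Chev.Ree4Invol.card_tits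
  rw [h]; norm_num

theorem finite_T : Finite TitsGroup := Nat.finite_of_card_ne_zero (by rw [card_T]; norm_num)

/-- The matrices of the twisted group. -/
noncomputable def matG : G2T →* Matrix chevF4.Idx chevF4.Idx (ZMod 2) := (Units.coeHom _).comp G2T.subtype

theorem matG_inj : Function.Injective matG := fun _ _ e => Subtype.ext (Units.ext e)

/-- The matrices of the Tits group. -/
noncomputable def matT : TitsGroup →* Matrix chevF4.Idx chevF4.Idx (ZMod 2) :=
  matG.comp (commutator G2T).subtype

theorem matT_inj : Function.Injective matT := fun _ _ e => Subtype.ext (matG_inj e)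

/-- The generating words, by positions of roots and parameters. -/
def gsParam : List (List (ℕ × ℕ)) :=
  [[(3, 1), (0, 1)], [(1, 1), (2, 1)],
   [(4, 1), (5, 1), (6, 1), (7, 0)], [(4, 0), (5, 0), (6, 1), (7, 1)], [(4, 1), (5, 1), (6, 0), (7, 1)],
   [(8, 1), (9, 1), (10, 1), (11, 0)], [(8, 0), (9, 0), (10, 1), (11, 1)], [(8, 1), (9, 1), (10, 0), (11, 1)]]

/-- The word of root elements of a generator. -/
def gsRoots (l : List (ℕ × ℕ)) : List (ℕ × ZMod 2) := l.map fun q => ((rootTab.getD q.1 (0, 0)).1, (q.2 : ZMod 2))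

/-- The code of one factor. -/
def factorC (q : ℕ × ℕ) : ℕ := bif Nat.beq q.2 0 then oneC else (rootTab.getD q.1 (0, 0)).2

/-- The code of a generator. -/
def gsC (i : ℕ) : ℕ := prodC ((gsParam.getD i []).map factorC)

theorem toM_prodC (l : List ℕ) : toM (prodC l) = (l.map toM).prod := by
  induction l with
  | nil => rw [prodC, List.foldr_nil, List.map_nil, List.prod_nil, toM_one]
  | cons a r ih =>
    rw [List.map_cons, List.prod_cons, ← ih, toM_mul]
    rw [prodC, prodC, List.foldr_cons]

theorem wordMat_eq (l : List (ℕ × ℕ)) (h : ∀ q ∈ l, q.1 < 12 ∧ q.2 < 2) :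
    chevF4.wordMat (ZMod 2) (gsRoots l) = toM (prodC (l.map factorC)) := by
  rw [toM_prodC, ChevalleyDatum.wordMat, gsRoots, List.map_map, List.map_map]
  refine congrArg List.prod (List.map_congr_left fun q hq => ?_)
  obtain ⟨h1, h2⟩ := h q hq
  obtain ⟨k, t⟩ := q
  rcases (show t = 0 ∨ t = 1 by omega) with rfl | rfl
  · simp only [Function.comp_apply, Nat.cast_zero, factorC]
    exact roots_zero ⟨k, h1⟩
  · simp only [Function.comp_apply, Nat.cast_one, factorC]
    exact roots_one ⟨k, h1⟩

theorem gs_mem : ∀ i < 8, gsRoots (gsParam.getD i []) ∈ f4Words (ZMod 2) 1 := by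
  intro i hi
  interval_cases i
  · exact Or.inl ⟨1, Or.inl (by decide)⟩
  · exact Or.inl ⟨1, Or.inr (by decide)⟩
  · exact Or.inr ⟨1, 0, Or.inl (by decide)⟩
  · exact Or.inr ⟨0, 1, Or.inl (by decide)⟩
  · exact Or.inr ⟨1, 1, Or.inl (by decide)⟩
  · exact Or.inr ⟨1, 0, Or.inr (by decide)⟩
  · exact Or.inr ⟨0, 1, Or.inr (by decide)⟩
  · exact Or.inr ⟨1, 1, Or.inr (by decide)⟩

/-- A power. -/
def powC (g : ℕ) : ℕ → ℕ
  | 0 => oneC
  | n + 1 => mulC (powC g n) g

theorem toM_powC (g : ℕ) : ∀ n, toM (powC g n) = toM g ^ n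
  | 0 => by rw [powC, toM_one, pow_zero]
  | n + 1 => by rw [powC, ← toM_mul, toM_powC g n, pow_succ]

/-- The generators have fourth power one and their positions are in range. -/
def gsOk : Bool := (List.range 8).all fun i =>
  Nat.beq (powC (gsC i) 4) oneC && (gsParam.getD i []).all fun q => Nat.blt q.1 12 && Nat.blt q.2 2

theorem gs_ok : gsOk = true := by decide +kernel

theorem exists_gs (i : ℕ) : ∃ x : G2T, matG x = toM (gsC i) := by
  rcases Nat.lt_or_ge i 8 with hi | hi
  · have h := gs_ok
    simp only [gsOk, List.all_eq_true, List.mem_range, Bool.and_eq_true, Nat.beq_eq, Nat.blt_eq] at h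
    obtain ⟨h4, hq⟩ := h i hi
    have h4' : toM (gsC i) ^ 4 = 1 := by rw [← toM_powC, h4, toM_one]
    let u : GL chevF4.Idx (ZMod 2) :=
      ⟨toM (gsC i), toM (gsC i) ^ 3, by rw [← pow_succ']; exact h4', by rw [← pow_succ]; exact h4'⟩
    refine ⟨⟨u, Subgroup.subset_closure ⟨gsRoots (gsParam.getD i []), gs_mem i hi, ?_⟩⟩, rfl⟩
    change toM (gsC i) = _
    rw [wordMat_eq _ hq, gsC]
  · refine ⟨1, ?_⟩
    rw [map_one, gsC, List.getD_eq_default _ _ hi, List.map_nil, prodC, List.foldr_nil, toM_one]

theorem exists_prod (f : ℕ → ℕ) (hf : ∀ i, ∃ x : G2T, matG x = toM (f i)) (l : List ℕ) :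
    ∃ x : G2T, matG x = toM (prodC (l.map f)) := by
  induction l with
  | nil => exact ⟨1, by rw [map_one, List.map_nil, prodC, List.foldr_nil, toM_one]⟩
  | cons a r ih =>
    obtain ⟨x, hx⟩ := hf a
    obtain ⟨y, hy⟩ := ih
    refine ⟨x * y, ?_⟩
    rw [map_mul, hx, hy, toM_mul, List.map_cons, prodC, prodC, List.foldr_cons]

/-- A square of a power of a word. -/
def sqC (s : List ℕ × ℕ) : ℕ := mulC (powC (prodC (s.1.map gsC)) s.2) (powC (prodC (s.1.map gsC)) s.2)

/-- The code is that of an element of the Tits group. -/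
structure Good (n : ℕ) : Prop where
  /-- the code is well formed -/
  wfn : wf n = true
  /-- it is attained -/
  att : ∃ x : TitsGroup, matT x = toM n

theorem wf_oneC : wf oneC = true := by decide +kernel

theorem good_one : Good oneC := ⟨wf_oneC, 1, by rw [map_one, toM_one]⟩

theorem good_mul {g h : ℕ} (hg : Good g) (hh : Good h) : Good (mulC g h) := by
  obtain ⟨x, hx⟩ := hg.att
  obtain ⟨y, hy⟩ := hh.att
  exact ⟨wf_mulC g h, x * y, by rw [map_mul, hx, hy, toM_mul]⟩

theorem att_of {n : ℕ} (y : G2T) (hy : y ∈ commutator G2T) (e : matG y = toM n) :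
    ∃ x : TitsGroup, matT x = toM n := ⟨⟨y, hy⟩, e⟩

theorem sqC_def (w : List ℕ) (k : ℕ) :
    sqC (w, k) = mulC (powC (prodC (w.map gsC)) k) (powC (prodC (w.map gsC)) k) := by rw [sqC]

theorem good_sq (s : List ℕ × ℕ) : Good (sqC s) := by
  obtain ⟨w, k⟩ := s
  obtain ⟨x, hx⟩ := exists_prod gsC exists_gs w
  rw [sqC_def]
  generalize prodC (w.map gsC) = c at hx ⊢
  have hm : (x ^ k) ^ 2 ∈ commutator G2T := Subgroup.sq_mem_of_index_two index_two _
  have hv : matG ((x ^ k) ^ 2) = toM (mulC (powC c k) (powC c k)) := by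
    rw [map_pow, map_pow, hx, ← toM_mul, toM_powC, sq]
  exact ⟨wf_mulC _ _, att_of _ hm hv⟩

theorem good_prodC (l : List ℕ) (h : ∀ a ∈ l, Good a) : Good (prodC l) := by
  induction l with
  | nil => rw [prodC, List.foldr_nil]; exact good_one
  | cons a r ih =>
    have h1 := good_mul (h a List.mem_cons_self) (ih fun b hb => h b (List.mem_cons_of_mem _ hb))
    rw [prodC] at h1
    rw [prodC, List.foldr_cons]
    exact h1

/-- Each letter is the product of its squares and earlier letters. -/
def lettersOk (spec : List (List (List ℕ × ℕ) × List ℕ)) (ls : List ℕ) : Bool :=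
  Nat.beq ls.length spec.length && (List.range ls.length).all fun k =>
    (spec.getD k ([], [])).2.all (fun j => Nat.blt j k) &&
      Nat.beq (ls.getD k oneC)
        (prodC ((spec.getD k ([], [])).1.map sqC ++ (spec.getD k ([], [])).2.map fun j => ls.getD j oneC))

theorem good_letters {spec : List (List (List ℕ × ℕ) × List ℕ)} {ls : List ℕ} (h : lettersOk spec ls = true) :
    ∀ k, Good (ls.getD k oneC) := by
  simp only [lettersOk, Bool.and_eq_true, List.all_eq_true, List.mem_range, Nat.beq_eq, Nat.blt_eq] at h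
  intro k
  induction k using Nat.strong_induction_on with
  | _ k ih =>
    rcases Nat.lt_or_ge k ls.length with hk | hk
    · rw [(h.2 k hk).2]
      refine good_prodC _ fun a ha => ?_
      rcases List.mem_append.1 ha with ha | ha
      · obtain ⟨s, -, rfl⟩ := List.mem_map.1 ha
        exact good_sq s
      · obtain ⟨j, hj, rfl⟩ := List.mem_map.1 ha
        exact ih j ((h.2 k hk).1 j hj)
    · rw [List.getD_eq_default _ _ hk]; exact good_one

theorem elk_exists : ∃ f : ℕ → TitsGroup, ∀ n, Good n → matT (f n) = toM n := by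
  classical
  exact ⟨fun n => if h : Good n then h.att.choose else 1, fun n h => by
    simp only [dif_pos h]; exact h.att.choose_spec⟩

/-- The element of a code, with its definition hidden. -/
noncomputable def elk : ℕ → TitsGroup := elk_exists.choose

theorem matT_elk {n : ℕ} (h : Good n) : matT (elk n) = toM n := elk_exists.choose_spec n h

theorem elk_mul {g h : ℕ} (hg : Good g) (hh : Good h) : elk g * elk h = elk (mulC g h) :=
  matT_inj (by rw [map_mul, matT_elk hg, matT_elk hh, matT_elk (good_mul hg hh), toM_mul])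

theorem elk_one : elk oneC = 1 := matT_inj (by rw [matT_elk good_one, map_one, toM_one])

theorem elk_inj {g h : ℕ} (hg : Good g) (hh : Good h) (e : elk g = elk h) : g = h :=
  toM_inj hg.wfn hh.wfn (by rw [← matT_elk hg, ← matT_elk hh, e])

end CfsgLib.TitsMult
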