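import Cfsg.Agent.TitsMult.Code
import Cfsg.Prelude.Def_LieTwisted

set_option autoImplicit false
set_option maxRecDepth 100000

/-!
The packed product is the product of matrices over two elements.
-/

namespace CfsgLib.TitsMult

open Cfsg.Lie Matrix

/-- A bit as an element of the field. -/
def bitF (n k : ℕ) : ZMod 2 := if Nat.testBit n k then 1 else 0

theorem bitF_xor (x y k : ℕ) : bitF (x ^^^ y) k = bitF x k + bitF y k := by
  simp only [bitF, Nat.testBit_xor]
  cases Nat.testBit x k <;> cases Nat.testBit y k <;> decide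

theorem bitF_zero (k : ℕ) : bitF 0 k = 0 := by simp [bitF]

theorem bitAt_eq (n k : ℕ) : bitAt n k = Nat.testBit n k := by
  rw [bitAt, Nat.testBit_eq_decide_div_mod_eq, Nat.shiftRight_eq_div_pow, Nat.and_one_is_mod]
  rcases Nat.mod_two_eq_zero_or_one (n / 2 ^ k) with h | h <;> rw [h] <;> rfl

theorem rowN_eq (n i : ℕ) : rowN n i = (n >>> (52 * i)) % 2 ^ 52 := by
  rw [rowN, show (4503599627370495 : ℕ) = 2 ^ 52 - 1 by norm_num, Nat.and_two_pow_sub_one_eq_mod]

theorem rowN_lt (n i : ℕ) : rowN n i < 2 ^ 52 := by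
  rw [rowN_eq]; exact Nat.mod_lt _ (by norm_num)

theorem bitF_rowN (n i : ℕ) {j : ℕ} (hj : j < 52) : bitF (rowN n i) j = bitF n (52 * i + j) := by
  simp only [bitF, rowN_eq, Nat.testBit_mod_two_pow, Nat.testBit_shiftRight, decide_eq_true hj,
    Bool.true_and]

theorem xorRows_bit (a h : ℕ) {j : ℕ} (hj : j < 52) : ∀ n,
    bitF (xorRows a h n) j = ∑ k ∈ Finset.range n, bitF a k * bitF h (52 * k + j)
  | 0 => by rw [Finset.range_zero, Finset.sum_empty, xorRows, bitF_zero]
  | n + 1 => by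
    rw [Finset.sum_range_succ, ← xorRows_bit a h hj n, xorRows, bitAt_eq]
    cases hb : Nat.testBit a n
    · simp [bitF, hb]
    · rw [cond_true, bitF_xor, bitF_rowN _ _ hj]
      simp [bitF, hb]

theorem xorRows_lt (a h : ℕ) : ∀ n, xorRows a h n < 2 ^ 52
  | 0 => by rw [xorRows]; norm_num
  | n + 1 => by
    rw [xorRows]
    cases bitAt a n
    · exact xorRows_lt a h n
    · exact Nat.xor_lt_two_pow (xorRows_lt a h n) (rowN_lt h n)

theorem asm_lt (f : ℕ → ℕ) (hf : ∀ i, f i < 2 ^ 52) : ∀ n, asm f n < 2 ^ (52 * n)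
  | 0 => by rw [asm]; norm_num
  | n + 1 => by
    rw [asm]
    refine Nat.or_lt_two_pow ((asm_lt f hf n).trans_le (Nat.pow_le_pow_right (by norm_num) (by omega))) ?_
    rw [Nat.shiftLeft_eq, show 52 * (n + 1) = 52 + 52 * n by ring, pow_add]
    exact Nat.mul_lt_mul_of_pos_right (hf n) (pow_pos (by norm_num) _)

theorem asm_bit (f : ℕ → ℕ) (hf : ∀ i, f i < 2 ^ 52) {j : ℕ} (hj : j < 52) : ∀ n i, i < n →
    Nat.testBit (asm f n) (52 * i + j) = Nat.testBit (f i) j
  | 0, i, hi => absurd hi (Nat.not_lt_zero i)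
  | n + 1, i, hi => by
    rw [asm, Nat.testBit_or, Nat.testBit_shiftLeft]
    rcases Nat.lt_succ_iff_lt_or_eq.1 hi with h | rfl
    · rw [decide_eq_false (show ¬ 52 * i + j ≥ 52 * n by omega), Bool.false_and, Bool.or_false,
        asm_bit f hf hj n i h]
    · rw [decide_eq_true (show 52 * i + j ≥ 52 * i by omega), Bool.true_and,
        Nat.testBit_lt_two_pow ((asm_lt f hf i).trans_le (Nat.pow_le_pow_right (by norm_num) (by omega))),
        Bool.false_or, Nat.add_sub_cancel_left]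

/-- The coordinates. -/
noncomputable def idxE : chevF4.Idx ≃ Fin 52 :=
  (finSumFinEquiv (m := chevF4.rank) (n := chevF4.nroots)).trans (finCongr (by decide +kernel))

/-- The position of a coordinate. -/
def idxN : chevF4.Idx → ℕ
  | Sum.inl i => i.val
  | Sum.inr r => 4 + r.val

theorem rank_eq : chevF4.rank = 4 := by decide +kernel

theorem idxN_eq : ∀ i : chevF4.Idx, idxN i = (idxE i).val
  | Sum.inl i => by simp [idxN, idxE]
  | Sum.inr r => by simp [idxN, idxE, rank_eq]

theorem idxN_lt (i : chevF4.Idx) : idxN i < 52 := by rw [idxN_eq]; exact (idxE i).isLt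

theorem idxN_inj {i j : chevF4.Idx} (h : idxN i = idxN j) : i = j := by
  rw [idxN_eq, idxN_eq] at h
  exact idxE.injective (Fin.ext h)

theorem sum_idx {M : Type*} [AddCommMonoid M] (f : ℕ → M) :
    ∑ k : chevF4.Idx, f (idxN k) = ∑ k ∈ Finset.range 52, f k := by
  rw [← Fin.sum_univ_eq_sum_range]
  exact Fintype.sum_equiv idxE _ _ fun k => by rw [idxN_eq]

/-- The matrix of a code. -/
def toM (n : ℕ) : Matrix chevF4.Idx chevF4.Idx (ZMod 2) := Matrix.of fun i j => bitF n (52 * idxN i + idxN j)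

/-- The vector of a row. -/
def vecOf (x : ℕ) : chevF4.Idx → ZMod 2 := fun j => bitF x (idxN j)

theorem rowX_lt (a h : ℕ) : rowX a h < 2 ^ 52 := by rw [rowX]; exact xorRows_lt a h _

theorem rowX_bit (a h : ℕ) {j : ℕ} (hj : j < 52) :
    bitF (rowX a h) j = ∑ k ∈ Finset.range 52, bitF a k * bitF h (52 * k + j) := by
  rw [rowX]; exact xorRows_bit a h hj _

theorem vecOf_rowX (x g : ℕ) : vecOf (rowX x g) = vecOf x ᵥ* toM g := by
  funext j
  rw [vecOf, rowX_bit x g (idxN_lt j), ← sum_idx]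
  rfl

theorem mulC_bit (g h : ℕ) {i j : ℕ} (hi : i < 52) (hj : j < 52) :
    Nat.testBit (mulC g h) (52 * i + j) = Nat.testBit (rowX (rowN g i) h) j := by
  rw [mulC]; exact asm_bit _ (fun i => rowX_lt _ _) hj _ _ hi

theorem mulC_lt (g h : ℕ) : mulC g h < 2 ^ 2704 := by
  rw [mulC, show 2704 = 52 * 52 by norm_num]; exact asm_lt _ (fun i => rowX_lt _ _) _

theorem toM_mul (g h : ℕ) : toM g * toM h = toM (mulC g h) := by
  refine Matrix.ext fun i j => ?_
  have e : bitF (mulC g h) (52 * idxN i + idxN j) = bitF (rowX (rowN g (idxN i)) h) (idxN j) := by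
    rw [bitF, bitF, mulC_bit g h (idxN_lt i) (idxN_lt j)]
  rw [Matrix.mul_apply]
  change _ = bitF (mulC g h) (52 * idxN i + idxN j)
  rw [e, rowX_bit _ _ (idxN_lt j), ← sum_idx]
  refine Finset.sum_congr rfl fun k _ => ?_
  rw [bitF_rowN _ _ (idxN_lt k)]
  rfl

theorem wf_mulC (g h : ℕ) : wf (mulC g h) = true := by
  rw [wf, Nat.blt_eq]; exact mulC_lt g h

theorem toM_inj {g h : ℕ} (hg : wf g = true) (hh : wf h = true) (e : toM g = toM h) : g = h := by
  rw [wf, Nat.blt_eq] at hg hh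
  refine Nat.eq_of_testBit_eq fun b => ?_
  rcases Nat.lt_or_ge b (52 * 52) with hb | hb
  · have h1 := congrFun (congrFun e (idxE.symm ⟨b / 52, by omega⟩)) (idxE.symm ⟨b % 52, by omega⟩)
    simp only [toM, Matrix.of_apply, idxN_eq, Equiv.apply_symm_apply, Nat.div_add_mod, bitF] at h1
    revert h1
    cases Nat.testBit g b <;> cases Nat.testBit h b <;> simp
  · have hp : (2 : ℕ) ^ 2704 ≤ 2 ^ b := Nat.pow_le_pow_right (by norm_num) (by omega)
    rw [Nat.testBit_lt_two_pow (hg.trans_le hp), Nat.testBit_lt_two_pow (hh.trans_le hp)]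

theorem vecOf_inj {x y : ℕ} (hx : x < 2 ^ 52) (hy : y < 2 ^ 52) (e : vecOf x = vecOf y) : x = y := by
  refine Nat.eq_of_testBit_eq fun b => ?_
  rcases Nat.lt_or_ge b 52 with hb | hb
  · have h1 := congrFun e (idxE.symm ⟨b, hb⟩)
    simp only [vecOf, idxN_eq, Equiv.apply_symm_apply, bitF] at h1
    revert h1
    cases Nat.testBit x b <;> cases Nat.testBit y b <;> simp
  · have hp : (2 : ℕ) ^ 52 ≤ 2 ^ b := Nat.pow_le_pow_right (by norm_num) hb
    rw [Nat.testBit_lt_two_pow (hx.trans_le hp), Nat.testBit_lt_two_pow (hy.trans_le hp)]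

theorem toM_one : toM oneC = 1 := by
  refine Matrix.ext fun i j => ?_
  have hb : Nat.testBit oneC (52 * idxN i + idxN j) = Nat.testBit (2 ^ idxN i) (idxN j) := by
    rw [oneC]
    rw [asm_bit _ (fun k => Nat.pow_lt_pow_right (by norm_num) (Nat.mod_lt _ (by norm_num))) (idxN_lt j) _ _
      (idxN_lt i), Nat.mod_eq_of_lt (idxN_lt i)]
  change bitF oneC (52 * idxN i + idxN j) = _
  rw [bitF, hb, Nat.testBit_two_pow, Matrix.one_apply]
  by_cases h : i = j
  · subst h; simp
  · simp [h, show idxN i ≠ idxN j from fun e => h (idxN_inj e)]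

end CfsgLib.TitsMult
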