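import Cfsg.Agent.TitsMult.Group
import Cfsg.Agent.G23Mult.Bound

set_option autoImplicit false
set_option maxRecDepth 100000

/-!
Stem kernels of prime power order over the Tits group are trivial at 2, 3 and 5.
-/

namespace CfsgLib.TitsMult

open Cfsg Cfsg.Lie Matrix
open CfsgLib.M23Coh (wordE)

universe v

theorem gel_exists : ∃ f : List ℕ → ℕ → TitsGroup, ∀ ls i, f ls i = elk (ls.getD i oneC) :=
  ⟨fun ls i => elk (ls.getD i oneC), fun _ _ => rfl⟩

/-- The lettered elements, with their definition hidden. -/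
noncomputable def gel : List ℕ → ℕ → TitsGroup := gel_exists.choose

theorem gel_def (ls : List ℕ) (i : ℕ) : gel ls i = elk (ls.getD i oneC) := gel_exists.choose_spec ls i

theorem wordE_hom {H : Type*} [Group H] (f : ℕ → H) (e : ℕ → H) (P : ℕ → Prop) (m : ℕ → ℕ → ℕ)
    (c : List ℕ → ℕ) (l : ℕ → ℕ) (h0 : e (c []) = 1) (hc : ∀ i r, c (i :: r) = m (l i) (c r))
    (hl : ∀ i, P (l i)) (hP : ∀ r, P (c r)) (hf : ∀ i, f i = e (l i))
    (hm : ∀ a b, P a → P b → e a * e b = e (m a b)) : ∀ w, wordE f w = e (c w)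
  | [] => h0.symm
  | i :: r => by
    have ih := wordE_hom f e P m c l h0 hc hl hP hf hm r
    rw [show wordE f (i :: r) = f i * wordE f r from rfl, ih, hf, hm _ _ (hl i) (hP r), hc]

/-- The code of a word in the letters. -/
def wC (ls : List ℕ) (w : List ℕ) : ℕ := prodC (w.map fun i => ls.getD i oneC)

theorem good_wC {ls : List ℕ} (hl : ∀ i, Good (ls.getD i oneC)) (w : List ℕ) : Good (wC ls w) := by
  rw [wC]
  refine good_prodC _ fun a ha => ?_
  obtain ⟨i, -, rfl⟩ := List.mem_map.1 ha
  exact hl i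

theorem wC_nil (ls : List ℕ) : wC ls [] = oneC := by rw [wC, List.map_nil, prodC, List.foldr_nil]

theorem prodC_cons (a : ℕ) (l : List ℕ) : prodC (a :: l) = mulC a (prodC l) := by
  unfold prodC; rw [List.foldr_cons]

theorem wC_cons (ls : List ℕ) (i : ℕ) (r : List ℕ) : wC ls (i :: r) = mulC (ls.getD i oneC) (wC ls r) := by
  unfold wC; rw [List.map_cons, prodC_cons]

theorem elk_wC_nil (ls : List ℕ) : elk (wC ls []) = 1 := by rw [wC_nil, elk_one]

theorem hm_elk : ∀ a b, Good a → Good b → elk a * elk b = elk (mulC a b) := fun _ _ ha hb => elk_mul ha hb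

theorem wordE_gel {ls : List ℕ} (hl : ∀ i, Good (ls.getD i oneC)) (w : List ℕ) :
    wordE (gel ls) w = elk (wC ls w) :=
  wordE_hom (gel ls) elk Good mulC (wC ls) (fun i => ls.getD i oneC) (elk_wC_nil ls) (wC_cons ls)
    hl (good_wC hl) (gel_def ls) hm_elk w

theorem good2 : ∀ i, Good (lets2.getD i oneC) := good_letters (spec := spec2) (by decide +kernel)

theorem good3 : ∀ i, Good (lets3.getD i oneC) := good_letters (spec := spec3) (by decide +kernel)

theorem good5 : ∀ i, Good (lets5.getD i oneC) := good_letters (spec := spec5) (by decide +kernel)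

/-- The relations hold between the codes. -/
def relsOk (c : SchurCert.GCert) (ls : List ℕ) : Bool :=
  c.rels.all fun r => Nat.beq (wC ls r.1) (wC ls r.2)

theorem rels_of {c : SchurCert.GCert} {ls : List ℕ} (hl : ∀ i, Good (ls.getD i oneC)) (h : relsOk c ls = true) :
    ∀ r ∈ c.rels, wordE (gel ls) r.1 = wordE (gel ls) r.2 := fun r hr => by
  simp only [relsOk, List.all_eq_true, Nat.beq_eq] at h
  rw [wordE_gel hl, wordE_gel hl, h r hr]

theorem nodup_of {c : SchurCert.GCert} {ls : List ℕ} (hl : ∀ i, Good (ls.getD i oneC))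
    (h : (c.nf.map (wC ls)).Nodup) : (c.nf.map (wordE (gel ls))).Nodup := by
  refine (List.nodup_map_iff_inj_on (List.Nodup.of_map _ h)).2 fun u hu v hv e => ?_
  refine List.inj_on_of_nodup_map h hu hv (elk_inj (good_wC hl u) (good_wC hl v) ?_)
  rw [← wordE_gel hl, ← wordE_gel hl, e]

theorem ok3 : cert3.Ok (gel lets3) :=
  ⟨Nat.prime_three, rels_of good3 (by decide +kernel), by decide +kernel, by decide +kernel, by decide +kernel,
    by decide +kernel, nodup_of good3 (by decide +kernel), by rw [card_T]; decide +kernel⟩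

theorem ok5 : cert5.Ok (gel lets5) :=
  ⟨Nat.prime_five, rels_of good5 (by decide +kernel), by decide +kernel, by decide +kernel, by decide +kernel,
    by decide +kernel, nodup_of good5 (by decide +kernel), by rw [card_T]; decide +kernel⟩

/-- The inverse codes are inverse, and each set is kept by later letters and left by its own. -/
def setsOk : Bool :=
  (List.range 11).all fun i =>
    Nat.beq (mulC (invs.getD i oneC) (lets2.getD i oneC)) oneC &&
    (sets.getD i (0, [])).2.contains (sets.getD i (0, [])).1 &&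
    ((sets.getD i (0, [])).2.all fun x => Nat.blt x (2 ^ 52)) &&
    !((sets.getD i (0, [])).2.contains (rowX (sets.getD i (0, [])).1 (invs.getD i oneC))) &&
    (List.range 11).all fun j => Nat.ble j i ||
      (sets.getD i (0, [])).2.all fun x => (sets.getD i (0, [])).2.contains (rowX x (invs.getD j oneC))

theorem sets_ok : setsOk = true := by decide +kernel

/-- An action on rows through a representation by inverse matrices. -/
@[reducible] def rowAct {H : Type*} [Group H] {ι R : Type*} [Fintype ι] [DecidableEq ι] [CommRing R]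
    (φ : H →* Matrix ι ι R) : MulAction H (ι → R) where
  smul g v := v ᵥ* φ g⁻¹
  one_smul v := show v ᵥ* φ 1⁻¹ = v by rw [inv_one, map_one, vecMul_one]
  mul_smul g h v := show v ᵥ* φ (g * h)⁻¹ = (v ᵥ* φ h⁻¹) ᵥ* φ g⁻¹ by
    rw [_root_.mul_inv_rev, map_mul, vecMul_vecMul]

/-- The action on rows. -/
@[reducible] noncomputable def rowAction : MulAction TitsGroup (chevF4.Idx → ZMod 2) := rowAct matT

theorem map_inv_of {H : Type*} [Group H] {M : Type*} [Monoid M] (φ : H →* M) {x : H} {A : M}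
    (h : A * φ x = 1) : φ x⁻¹ = A := by
  have h2 : φ x * φ x⁻¹ = 1 := by rw [← map_mul, mul_inv_cancel, map_one]
  exact (left_inv_eq_right_inv h h2).symm

theorem inv_gel {i : ℕ} (h : mulC (invs.getD i oneC) (lets2.getD i oneC) = oneC) :
    matT (gel lets2 i)⁻¹ = toM (invs.getD i oneC) := by
  refine map_inv_of matT ?_
  rw [gel_def, matT_elk (good2 i), toM_mul, h, toM_one]

theorem big2 : 2 ^ 11 ≤ Nat.card (Subgroup.closure (gel lets2 '' {s | s < 11})) := by
  haveI := finite_T
  letI := rowAction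
  refine SchurCert.two_pow_le_closure (α := chevF4.Idx → ZMod 2) (gel lets2) 11 fun i hi => ?_
  have h := sets_ok
  simp only [setsOk, List.all_eq_true, List.mem_range, Bool.and_eq_true, Bool.or_eq_true, Bool.not_eq_true',
    List.contains_eq_mem, decide_eq_true_eq, decide_eq_false_iff_not, Nat.blt_eq, Nat.ble_eq, Nat.beq_eq] at h
  obtain ⟨⟨⟨⟨hinv, hx⟩, hlt⟩, hout⟩, hin⟩ := h i hi
  refine ⟨{v | ∃ x ∈ (sets.getD i (0, [])).2, vecOf x = v}, fun j hij hj v hv => ?_,
    vecOf (sets.getD i (0, [])).1, ⟨_, hx, rfl⟩, ?_⟩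
  · obtain ⟨x, hxm, rfl⟩ := hv
    refine ⟨_, ((hin j hj).resolve_left (by omega)) x hxm, ?_⟩
    show _ = vecOf x ᵥ* matT (gel lets2 j)⁻¹
    rw [inv_gel (h j hj).1.1.1.1, vecOf_rowX]
  · rintro ⟨y, hy, e⟩
    change _ = vecOf (sets.getD i (0, [])).1 ᵥ* matT (gel lets2 i)⁻¹ at e
    rw [inv_gel hinv, ← vecOf_rowX] at e
    exact hout (vecOf_inj (hlt y hy) (rowX_lt _ _) e ▸ hy)

theorem core2 : cert2.Core (gel lets2) :=
  ⟨Nat.prime_two, rels_of good2 (by decide +kernel), by decide +kernel, by decide +kernel, by decide +kernel,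
    big2, by rw [card_T]; decide +kernel⟩

theorem part2 {Γ : Type v} [Group Γ] [Finite Γ] {σ : Γ →* TitsGroup} (hσ : Cfsg.IsStemExtension σ)
    (h : ∀ q, q.Prime → q ∣ Nat.card σ.ker → q = 2) : σ.ker = ⊥ :=
  haveI := finite_T
  G23Mult.ker_eq_bot_of_phiZero core2 (by decide +kernel) hσ h

theorem part3 {Γ : Type v} [Group Γ] [Finite Γ] {σ : Γ →* TitsGroup} (hσ : Cfsg.IsStemExtension σ)
    (h : ∀ q, q.Prime → q ∣ Nat.card σ.ker → q = 3) : σ.ker = ⊥ :=
  haveI := finite_T
  G23Mult.ker_eq_bot_of_phiZero ok3.toCore (by decide +kernel) hσ h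

theorem part5 {Γ : Type v} [Group Γ] [Finite Γ] {σ : Γ →* TitsGroup} (hσ : Cfsg.IsStemExtension σ)
    (h : ∀ q, q.Prime → q ∣ Nat.card σ.ker → q = 5) : σ.ker = ⊥ :=
  haveI := finite_T
  G23Mult.ker_eq_bot_of_phiZero ok5.toCore (by decide +kernel) hσ h

end CfsgLib.TitsMult
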