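import Cfsg.Agent.TitsMult.Data
import Cfsg.Agent.TitsMult.Mat

set_option autoImplicit false
set_option maxRecDepth 100000

/-!
Kernel evaluation of the root elements in use.
-/

namespace CfsgLib.TitsMult

open Cfsg.Lie Matrix

/-- The code of a root element with parameter. -/
def rootC (r t : ℕ) : ℕ := bif Nat.beq t 0 then oneC else
  (rootTab.filterMap fun q => bif Nat.beq q.1 r then some q.2 else none).getD 0 oneC

theorem roots_one : ∀ k : Fin 12,
    chevF4.x (ZMod 2) (rootTab.getD k.val (0, 0)).1 1 = toM (rootTab.getD k.val (0, 0)).2 := by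
  decide +kernel

theorem roots_zero : ∀ k : Fin 12,
    chevF4.x (ZMod 2) (rootTab.getD k.val (0, 0)).1 0 = toM oneC := by
  decide +kernel

end CfsgLib.TitsMult
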